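import Cfsg.Agent.H570.Ore.Abs

/-!
# The Baby Monster: the degrees up to 100627 (helper606)

`low` : from the local data `Dt` of helper570 the degree of a nontrivial irreducible character of degree at most `100627` is
`4371`, `42160`, `91884` or `96255`.
-/

set_option autoImplicit false
set_option maxRecDepth 100000

open Cfsg Subgroup
open scoped ComplexConjugate

namespace Cfsg.Agent.H606.Uniq.BLow

open Cfsg.Agent.Characters.Core Cfsg.Agent.H570.Ore Cfsg.Agent.H570.Ore.Num Cfsg.Agent.H570.Ore.Abs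
open Cfsg.Agent.SmallSimple.ThetaSetup Cfsg.Agent.SmallSimple.PrimeLocal
open Cfsg.Agent.H653.Sieve Cfsg.Agent.H651.Two

universe u

/-- the test -/
def chk2 (n : ℕ) : Bool :=
  bif Nat.beq n 1 then true else
    bif !(r3 47 n || r2 47 23 n) then true else
    bif !(r3 23 n || r2 23 11 n) then true else
    bif !(r3 31 n || r2 31 15 n) then true else
    bif !(r3 19 n) then true else
    bif !(r3 17 n || r2 17 2 n) then true else
    (dead n || ((Nat.beq n 4371 || Nat.beq n 42160) || (Nat.beq n 91884 || Nat.beq n 96255)))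

theorem check2 : allDiv (100628 * 100628) chk2 L 1 = true := by decide +kernel

/-- **The numerical statement.** -/
theorem num2 {n : ℕ} (hn : n ∣ 4154781481226426191177580544000000) (h1 : n ≠ 1) (hle : n ≤ 100627)
    (h47 : r3 47 n = true ∨ r2 47 23 n = true) (h31 : r3 31 n = true ∨ r2 31 15 n = true)
    (h23 : r3 23 n = true ∨ r2 23 11 n = true) (h19 : r3 19 n = true)
    (h17 : r3 17 n = true ∨ r2 17 2 n = true)
    {m : ℕ} (hm1 : 1 ≤ m) (hm : 4032 * m ≤ n) (hd : n ∣ 47953709766144000 * m)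
    (hm23 : m % 23 = 0 ∨ m % 23 = n % 23) :
    n = 4371 ∨ n = 42160 ∨ n = 91884 ∨ n = 96255 := by
  have hn0 : 0 < n := Nat.pos_of_dvd_of_pos hn (by norm_num)
  have key : chk2 n = true := by
    have h2 := allDiv_spec L_prime check2 n (by rw [fac]; exact hn)
      (by rw [one_mul]; exact Nat.mul_self_lt_mul_self (by omega))
    rwa [one_mul] at h2
  have hdead : dead n = false := by
    rw [Bool.eq_false_iff]
    exact fun h => dead_spec hn0 h hm1 hm hd hm23
  have hb1 : Nat.beq n 1 = false := by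
    rw [Bool.eq_false_iff]
    intro h
    exact h1 (Nat.eq_of_beq_eq_true h)
  have h47' : (!(r3 47 n || r2 47 23 n)) = false := by
    rcases h47 with h | h <;> rw [h] <;> simp
  have h31' : (!(r3 31 n || r2 31 15 n)) = false := by
    rcases h31 with h | h <;> rw [h] <;> simp
  have h23' : (!(r3 23 n || r2 23 11 n)) = false := by
    rcases h23 with h | h <;> rw [h] <;> simp
  have h17' : (!(r3 17 n || r2 17 2 n)) = false := by
    rcases h17 with h | h <;> rw [h] <;> simp
  have h19' : (!(r3 19 n)) = false := by rw [h19]; rfl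
  rw [chk2, hb1, h31', h47', h23', h19', h17', hdead] at key
  simp only [cond_false, Bool.false_or, Bool.or_eq_true, Nat.beq_eq] at key
  tauto

variable {G : Type u} [Group G] [Finite G] [IsSimpleGroup G] {Z : G}

/-- **The degrees up to 100627.** -/
theorem low (D : Dt G Z) (χ : IrrCharacter G) (hχ : (χ : G → ℂ) ≠ 1) (hle : charDegree (χ : G → ℂ) ≤ 100627) :
    charDegree (χ : G → ℂ) = 4371 ∨ charDegree (χ : G → ℂ) = 42160 ∨ charDegree (χ : G → ℂ) = 91884 ∨
      charDegree (χ : G → ℂ) = 96255 := by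
  have hdvd : charDegree (χ : G → ℂ) ∣ NB := by rw [← D.card]; exact H511.Ore.charDegree_dvd χ
  have hn1 : charDegree (χ : G → ℂ) ≠ 1 := by
    have := H511.Ore.two_le_charDegree D.nonab χ hχ
    omega
  obtain ⟨k, hk⟩ := D.ext χ
  have hk1 : 1 ≤ k := Ext.one_le hχ D.Z_ne (c := 4096) (by norm_num) (by rw [hk]; push_cast; ring)
  obtain ⟨m, rfl⟩ := Int.eq_ofNat_of_zero_le (by omega : 0 ≤ k)
  have hm1 : 1 ≤ m := by exact_mod_cast hk1
  have hm : 4032 * m ≤ charDegree (χ : G → ℂ) := by exact_mod_cast D.pure χ m hk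
  have hd : charDegree (χ : G → ℂ) ∣ 47953709766144000 * m := by
    have h1 := Ext.dvd (χ := χ) (c := 4096) (k := m) D.idx (by rw [hk]; push_cast; ring)
    have h2 : 11707448673375 * 4096 * m = 47953709766144000 * m := by norm_num
    rwa [h2] at h1
  have hF47 : Fact (Nat.Prime 47) := ⟨by norm_num⟩
  have hF31 : Fact (Nat.Prime 31) := ⟨by norm_num⟩
  have hF23 : Fact (Nat.Prime 23) := ⟨by norm_num⟩
  obtain ⟨x47, hx47, hc47⟩ := D.x47
  obtain ⟨P, K, hK, hP, -, hp2, ht, he, hKc⟩ := exists_blk D.nonab D.card hx47 (k := 1) (by rw [hc47])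
    23 2 [(0, 0), (1, 2), (46, -2), (23, -1), (24, 1)] 2 true (by decide +kernel)
  obtain ⟨h47, -⟩ := res hK hP (by omega) hp2 he ht (by decide) (by norm_num) χ
  obtain ⟨x31, hx31, hc31⟩ := D.x31
  obtain ⟨P3, K3, hK3, hP3, -, hp23, ht3, he3, hKc3⟩ := exists_blk D.nonab D.card hx31 (k := 1) (by rw [hc31])
    15 2 [(0, 0), (1, 2), (30, -2), (15, -1), (16, 1)] 2 true (by decide +kernel)
  obtain ⟨h31, -⟩ := res hK3 hP3 (by omega) hp23 he3 ht3 (by decide) (by norm_num) χ
  -- 23
  obtain ⟨x23, hx23, hxZ, hc23⟩ := D.x23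
  obtain ⟨P', K', hK', hP', hPx', hp2', ht', he', hKc'⟩ := exists_blk D.nonab D.card hx23 (k := 2) (by rw [hc23])
    11 2 [(0, 0), (1, 2), (22, -2), (11, -1), (12, 1)] 0 false (by decide +kernel)
  obtain ⟨h23, -⟩ := res hK' hP' (by omega) hp2' he' ht' (by decide) (by norm_num) χ
  have hZK : Z ∈ K' := by
    rw [hK' Z]
    refine ⟨?_, ?_⟩
    · rw [hPx', mem_centralizer_iff]
      rintro _ ⟨i, rfl⟩
      exact ((show Commute x23 Z from hxZ).zpow_left i).eq
    · intro h
      have h1 : orderOf Z ∣ 2 := orderOf_dvd_of_pow_eq_one (by rw [pow_two]; exact D.Z_sq)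
      have h2 := h.trans h1
      revert h2
      norm_num
  have hm23 : m % 23 = 0 ∨ m % 23 = charDegree (χ : G → ℂ) % 23 := by
    have h1 := Blk.mod_invol hK' hP' hKc' hZK D.Z_ne he' ht' χ
      (c := (charDegree (χ : G → ℂ) : ℤ) - 4096 * m) (by rw [hk]; push_cast; ring)
    have e23 : ((23 : ℕ) : ℤ) = 23 := rfl
    rw [e23] at h1
    rcases h1 with ⟨h1, h2⟩ | h1 | h1
    · left; omega
    · left; omega
    · right; omega
  -- 19 and 17
  have h19 : r3 19 (charDegree (χ : G → ℂ)) = true := by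
    obtain ⟨x, hx, hc⟩ := D.x19
    have h1 := H511.Ore.res_of_has D.nonab D.card (c := ⟨19, 2, 18, 1, [(0, 0), (1, 1), (18, -1)], 0, false⟩)
      ⟨by norm_num, x, hx, hc.trans (by norm_num)⟩ (by decide +kernel) χ
    simp only [List.any_cons, List.any_nil, Bool.or_false, Bool.or_eq_true, Nat.beq_eq] at h1
    exact r3_spec h1
  have h17 : r3 17 (charDegree (χ : G → ℂ)) = true ∨ r2 17 2 (charDegree (χ : G → ℂ)) = true := by
    obtain ⟨x, hx, hc⟩ := D.x17
    have h1 := H511.Ore.res_of_has D.nonab D.card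
      (c := ⟨17, 4, 16, 1, [(0, 0), (1, 1), (16, -1), (2, 2), (15, -2)], 0, false⟩)
      ⟨by norm_num, x, hx, hc.trans (by norm_num)⟩ (by decide +kernel) χ
    simp only [List.any_cons, List.any_nil, Bool.or_false, Bool.or_eq_true, Nat.beq_eq] at h1
    rcases h1 with h1 | h1 | h1 | h1 | h1
    · exact Or.inl (r3_spec (Or.inl h1))
    · exact Or.inl (r3_spec (Or.inr (Or.inl h1)))
    · exact Or.inl (r3_spec (Or.inr (Or.inr h1)))
    · exact Or.inr (r2_spec.1 (Or.inl h1))
    · exact Or.inr (r2_spec.1 (Or.inr h1))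
  exact num2 hdvd hn1 hle h47 h31 h23 h19 h17 hm1 hm hd hm23

/-- the semigroup of the sums of the degrees -/
theorem not_comb (b c d e : ℕ) : 4371 * b + 42160 * c + 91884 * d + 96255 * e ≠ 100627 := by
  omega

end Cfsg.Agent.H606.Uniq.BLow
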